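import Mathlib
import Cfsg.Agent.Lib.Helper94.OMG.Defs
import Cfsg.Agent.Lib.Helper14.Levi

/-!
# Project OMG (S2415): package [LOM] — the Levi `SL_k` lies in `Ω⁻`

`L g` lies in `Ω⁺` (commutator subgroup of `O⁺`, `Helper14.leviIsom_mem_omega_of_det`), and the
embedding `Em : O⁺ →* O⁻` maps commutators to commutators.
-/

set_option autoImplicit false
open scoped Matrix MatrixGroups

namespace Cfsg.Agent.Lib.Helper46.OMG

open Cfsg.Agent.Lib.Helper31.Siegel Cfsg.Agent.Lib.Helper32.OPG Cfsg.Agent.Lib.Helper64.OParM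
open Cfsg.Agent.Lib.Helper94.OMG

universe u

/-- [LOM] the Levi `SL_k` lies in `Ω`. -/
theorem pkgLOm : PkgLOm.{u} := by
  intro F _ _ k a b hk g
  have h1 : L k F g ∈ Cfsg.Omega F (Cfsg.quadFormPlus k F) := by
    refine Cfsg.Agent.Lib.Helper14.leviIsom_mem_omega_of_det (fun h => by omega) _ ?_
    apply Units.ext
    simp
  exact Cfsg.Agent.Lib.Helper14.map_mem_commutator' (Em k F a b) h1

end Cfsg.Agent.Lib.Helper46.OMG
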