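import Mathlib
import Cfsg.Agent.Lib.Helper94.OMG.Defs
import Cfsg.Agent.Lib.Helper38.OPG.XL
import Cfsg.Agent.Lib.Helper44.Char2Forms
import Cfsg.Agent.Lib.Helper14.Eichler
import Cfsg.Agent.Lib.Helper14.Forms

/-!
# Project OMG (S2415): package [ROOTS]

With the Levi `SL_k` and a mixing element `u` fixing `e_i, f_i` (`i ≠ l`), the subgroup `K`
contains the Eichler elements `E(e_i, w)` for `w` in the span of the `u`-orbit of `f_l`, and
`E(f_i, w)` for `w` in the span of the `u`-orbit of `e_l`.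

The set `{w | B(p, w) = 0 ∧ ∀ c σ, σ = E(p, c w) → σ ∈ K}` is a submodule (additivity of
`w ↦ E(p, w)`: `Helper14.eichMat_mul`), and it contains the orbit: `E(e_i, c f_l)` is the Levi
image of a transvection (`Helper38.OPG.pkgXL`), conjugated by `u ^ j`.
-/

set_option autoImplicit false
open scoped Matrix MatrixGroups

namespace Cfsg.Agent.Lib.Helper46.OMG

open Cfsg.Agent.Lib.Helper31.Siegel Cfsg.Agent.Lib.Helper32.OPG Cfsg.Agent.Lib.Helper64.OParM
open Cfsg.Agent.Lib.Helper94.OMG Cfsg.Agent.Lib.Helper14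

universe u

/-- The isometry `σ` of `Q'` acts as the Eichler transformation `E(p, w)`. -/
def ActsEich {ι : Type} [Fintype ι] [DecidableEq ι] {F : Type u} [Field F] (Q' : (ι → F) → F)
    (p w : ι → F) (σ : ↥(Cfsg.isometryGroup F Q')) : Prop :=
  ∀ x : ι → F, ((σ : GL ι F) : Matrix ι ι F) *ᵥ x =
    x + QuadraticMap.polar Q' p x • w - (QuadraticMap.polar Q' w x + Q' w * QuadraticMap.polar Q' p x) • p

/-- Generic submodule argument: if `K` contains the Eichler elements `E(p, c s)` for `s` in a set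
`S ⊆ p^⊥`, it contains `E(p, c w)` for all `w` in the span of `S`. -/
theorem span_eich_mem {ι : Type} [Fintype ι] [DecidableEq ι] {F : Type u} [Field F]
    (Q : QuadraticForm F (ι → F)) (hQ : (QuadraticMap.polarBilin Q).Nondegenerate)
    (Q' : (ι → F) → F) (h : ⇑Q = Q') (K : Subgroup ↥(Cfsg.isometryGroup F Q'))
    (p : ι → F) (hp : Q' p = 0) (S : Set (ι → F))
    (hS : ∀ s ∈ S, QuadraticMap.polar Q' p s = 0 ∧
      ∀ (c : F) (σ : ↥(Cfsg.isometryGroup F Q')), ActsEich Q' p (c • s) σ → σ ∈ K)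
    (w : ι → F) (hw : w ∈ Submodule.span F S) :
    QuadraticMap.polar Q' p w = 0 ∧
      ∀ (c : F) (σ : ↥(Cfsg.isometryGroup F Q')), ActsEich Q' p (c • w) σ → σ ∈ K := by
  subst h
  have key : ∀ (w : ι → F) (σ : ↥(Cfsg.isometryGroup F ⇑Q)),
      ActsEich ⇑Q p w σ ↔ ((σ : GL ι F) : Matrix ι ι F) = eichMat Q p w := by
    intro w σ
    constructor
    · intro hσ
      exact Matrix.ext_of_mulVec_single fun i => by rw [hσ, eichMat_mulVec]
    · intro hσ x
      rw [hσ, eichMat_mulVec]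
  induction hw using Submodule.span_induction with
  | mem s hs => exact hS s hs
  | zero =>
    refine ⟨QuadraticMap.polar_zero_right Q p, fun c σ hσ => ?_⟩
    have h1 := (key _ _).mp hσ
    rw [smul_zero, eichMat_zero_right] at h1
    have h2 : σ = 1 := Subtype.ext (Units.ext h1)
    rw [h2]
    exact K.one_mem
  | add w₁ w₂ _ _ ih₁ ih₂ =>
    obtain ⟨h1, k1⟩ := ih₁
    obtain ⟨h2, k2⟩ := ih₂
    refine ⟨by rw [QuadraticMap.polar_add_right, h1, h2, add_zero], fun c σ hσ => ?_⟩
    have hc1 : QuadraticMap.polar ⇑Q p (c • w₁) = 0 := by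
      rw [QuadraticMap.polar_smul_right, h1, smul_zero]
    have hc2 : QuadraticMap.polar ⇑Q p (c • w₂) = 0 := by
      rw [QuadraticMap.polar_smul_right, h2, smul_zero]
    have h3 := (key _ _).mp hσ
    rw [smul_add, ← eichMat_mul Q hp hc1 hc2] at h3
    have e : σ = eichElt Q hQ p (c • w₁) hp hc1 * eichElt Q hQ p (c • w₂) hp hc2 := by
      apply Subtype.ext
      apply Units.ext
      rw [h3]
      rfl
    rw [e]
    exact K.mul_mem (k1 c _ ((key _ _).mpr (eichElt_coe Q hQ p (c • w₁) hp hc1)))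
      (k2 c _ ((key _ _).mpr (eichElt_coe Q hQ p (c • w₂) hp hc2)))
  | smul d w _ ih =>
    obtain ⟨h1, k1⟩ := ih
    refine ⟨by rw [QuadraticMap.polar_smul_right, h1, smul_zero], fun c σ hσ => ?_⟩
    rw [smul_smul] at hσ
    exact k1 (c * d) σ hσ

section

variable {k : ℕ} {F : Type u} [Field F] {a b : F}

theorem BM_smul_left' (c : F) (v x : MI k → F) :
    BM k a b (c • v) x = c * BM k a b v x := by
  have h := QuadraticMap.polar_smul_left (minusQF k F a b) c v x
  rw [minusQF_coe] at h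
  simpa using h

theorem QM_eM (i : Fin k) : QM k a b (eM i : MI k → F) = 0 := by
  simp [QM, Cfsg.quadFormMinus]

theorem QM_fM (i : Fin k) : QM k a b (fM i : MI k → F) = 0 := by
  simp [QM, Cfsg.quadFormMinus]

theorem QM_smul_eM (c : F) (i : Fin k) : QM k a b (c • (eM i : MI k → F)) = 0 := by
  simp [QM, Cfsg.quadFormMinus]

theorem QM_smul_fM (c : F) (i : Fin k) : QM k a b (c • (fM i : MI k → F)) = 0 := by
  simp [QM, Cfsg.quadFormMinus]

theorem BM_eM (i : Fin k) (x : MI k → F) : BM k a b (eM i) x = x (Sum.inl (Sum.inr i)) :=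
  minus_polar_inl k F a b i x

theorem BM_fM (i : Fin k) (x : MI k → F) : BM k a b (fM i) x = x (Sum.inl (Sum.inl i)) :=
  minus_polar_inr k F a b i x

/-- Conjugation of Eichler elements. -/
theorem isEich_conj {p w : MI k → F} {τ : ↥(GM k F a b)} (hτ : IsEich a b p w τ)
    (g : ↥(GM k F a b)) :
    IsEich a b (matM g *ᵥ p) (matM g *ᵥ w) (g * τ * g⁻¹) := by
  intro x
  have h1 : BM k a b p (matM g⁻¹ *ᵥ x) = BM k a b (matM g *ᵥ p) x := by
    rw [← BM_act g p (matM g⁻¹ *ᵥ x), actM_inv]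
  have h2 : BM k a b w (matM g⁻¹ *ᵥ x) = BM k a b (matM g *ᵥ w) x := by
    rw [← BM_act g w (matM g⁻¹ *ᵥ x), actM_inv]
  rw [mulM_act, mulM_act, hτ (matM g⁻¹ *ᵥ x), Matrix.mulVec_sub, Matrix.mulVec_add,
    Matrix.mulVec_smul, Matrix.mulVec_smul, actM_inv, h1, h2, QM_act g w]

/-- `E(e_i, c f_l)` is the Levi image of a transvection. -/
theorem isEich_Lm_e (i l : Fin k) (hil : i ≠ l) (c : F) :
    IsEich a b (eM i) (c • fM l)
      (Lm k F a b (Matrix.SpecialLinearGroup.transvection hil (-c))) := by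
  intro x
  rw [Lm_apply, matM_Em, Cfsg.Agent.Lib.Helper38.OPG.pkgXL k F i l hil (-c) (x ∘ Sum.inl), B_E,
    B_Fv, BM_eM, BM_smul_left', BM_fM, QM_smul_fM]
  ext ((j | j) | j)
  · by_cases hj : j = i
    · subst hj
      simp
      ring
    · simp [hj]
  · by_cases hj : j = l
    · subst hj
      simp
      ring
    · simp [hj]
  · simp

/-- `E(f_i, c e_l)` is the Levi image of a transvection. -/
theorem isEich_Lm_f (i l : Fin k) (hli : l ≠ i) (c : F) :
    IsEich a b (fM i) (c • eM l)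
      (Lm k F a b (Matrix.SpecialLinearGroup.transvection hli c)) := by
  intro x
  rw [Lm_apply, matM_Em, Cfsg.Agent.Lib.Helper38.OPG.pkgXL k F l i hli c (x ∘ Sum.inl), B_E,
    B_Fv, BM_fM, BM_smul_left', BM_eM, QM_smul_eM]
  ext ((j | j) | j)
  · by_cases hj : j = l
    · subst hj
      simp
      ring
    · simp [hj]
  · by_cases hj : j = i
    · subst hj
      simp
    · simp [hj]
  · simp

end

/-- **[ROOTS]** -/
theorem pkgRoots : PkgRoots.{u} := by
  intro F _ _ k a b hab K hL u hu hfix l i hl hil w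
  have hQ := Cfsg.Agent.Lib.Helper44.minusQF_nondegenerate_all k F a b hab
  have hcoe := minusQF_coe k F a b
  have hi : i.val + 1 < k := by
    have h1 := i.2
    have h2 : i.val ≠ l.val := fun h => hil (Fin.ext h)
    omega
  have hfixpow : ∀ j : ℕ, matM (u ^ j) *ᵥ (eM i : MI k → F) = eM i ∧
      matM (u ^ j) *ᵥ (fM i : MI k → F) = fM i := by
    intro j
    induction j with
    | zero => rw [pow_zero, oneM_act, oneM_act]; exact ⟨rfl, rfl⟩
    | succ j ih =>
      rw [pow_succ, mulM_act, mulM_act, (hfix i hi).1, (hfix i hi).2]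
      exact ih
  constructor
  · intro hw σ hσ
    have h := span_eich_mem (minusQF k F a b) hQ (Cfsg.quadFormMinus k F a b) hcoe K (eM i)
      (QM_eM i) (Set.range fun j : ℕ => matM (u ^ j) *ᵥ (fM l : MI k → F)) ?_ w hw
    · exact h.2 1 σ (by rw [one_smul]; exact hσ)
    · rintro _ ⟨j, rfl⟩
      refine ⟨?_, fun c σ hσ => ?_⟩
      · have h1 := BM_act (u ^ j) (eM i : MI k → F) (fM l)
        rw [(hfixpow j).1] at h1
        show BM k a b (eM i) (matM (u ^ j) *ᵥ (fM l : MI k → F)) = 0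
        rw [h1, BM_eM]
        simp [Ne.symm hil]
      · have hρ := isEich_conj (isEich_Lm_e (a := a) (b := b) i l hil c) (u ^ j)
        rw [(hfixpow j).1, Matrix.mulVec_smul] at hρ
        have hσρ : σ = u ^ j * Lm k F a b (Matrix.SpecialLinearGroup.transvection hil (-c)) *
            (u ^ j)⁻¹ := extM_act fun x => by rw [hσ x, hρ x]
        rw [hσρ]
        exact K.mul_mem (K.mul_mem (K.pow_mem hu j) (hL _)) (K.inv_mem (K.pow_mem hu j))
  · intro hw σ hσ
    have h := span_eich_mem (minusQF k F a b) hQ (Cfsg.quadFormMinus k F a b) hcoe K (fM i)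
      (QM_fM i) (Set.range fun j : ℕ => matM (u ^ j) *ᵥ (eM l : MI k → F)) ?_ w hw
    · exact h.2 1 σ (by rw [one_smul]; exact hσ)
    · rintro _ ⟨j, rfl⟩
      refine ⟨?_, fun c σ hσ => ?_⟩
      · have h1 := BM_act (u ^ j) (fM i : MI k → F) (eM l)
        rw [(hfixpow j).2] at h1
        show BM k a b (fM i) (matM (u ^ j) *ᵥ (eM l : MI k → F)) = 0
        rw [h1, BM_fM]
        simp [Ne.symm hil]
      · have hρ := isEich_conj (isEich_Lm_f (a := a) (b := b) i l (Ne.symm hil) c) (u ^ j)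
        rw [(hfixpow j).2, Matrix.mulVec_smul] at hρ
        have hσρ : σ = u ^ j * Lm k F a b (Matrix.SpecialLinearGroup.transvection (Ne.symm hil) c) *
            (u ^ j)⁻¹ := extM_act fun x => by rw [hσ x, hρ x]
        rw [hσρ]
        exact K.mul_mem (K.mul_mem (K.pow_mem hu j) (hL _)) (K.inv_mem (K.pow_mem hu j))

end Cfsg.Agent.Lib.Helper46.OMG
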